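import Cfsg.Agent.H707.Odd.EigenDeg

/-!
# Rational irreducible characters of odd degree from a simple eigenvalue: graph version with a large subgroup

Like `H707.Odd.ratOdd_of_graph`, but the classes are the orbits of a subgroup `L` which need not fix the base
point `x₀`; the elements of `L` map `x₀` to points with the same neighbours, and the eigenvalue is not zero.
-/

set_option autoImplicit false

namespace Cfsg.Agent.H600.J3Odd

open Cfsg Cfsg.Agent.H707.Odd Cfsg.Agent.H636.Gow

universe u

variable {G : Type u} [Group G] [Finite G] {X : Type} [Fintype X] [MulAction G X]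

open Classical in
theorem ratOdd_of_graph (E : X → X → Prop) (hE : ∀ (g : G) x y, E (g • x) (g • y) ↔ E x y) (x₀ : X)
    (L : Subgroup G) (hL : ∀ q ∈ L, ∀ y, E (q • x₀) y ↔ E x₀ y) {n : ℕ}
    (cls : X → Fin n) (r : Fin n → X) (hcls : ∀ g ∈ L, ∀ x, cls (g • x) = cls x)
    (htr : ∀ x, ∃ g ∈ L, g • r (cls x) = x) (B : Fin n → Fin n → ℕ)
    (hB : ∀ i j, (Finset.univ.filter fun y => E (r i) y ∧ cls y = j).card = B i j)
    (a : Fin n → ℚ) (t : ℚ) (ht : t ≠ 0) (hBa : ∀ i, ∑ j, (B i j : ℚ) * a j = t * a i)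
    (huniq : ∀ a' : Fin n → ℚ, (∀ i, ∑ j, (B i j : ℚ) * a' j = t * a' i) → ∀ i, a' i = a' (cls x₀) * a i)
    (ha : a (cls x₀) = 1) (hX : ∀ x y : X, ∃ g : G, g • x = y) (k : Fin n → ℕ)
    (hk : ∀ i, (Finset.univ.filter fun y => cls y = i).card = k i) (d : ℕ) (hd : Odd d) (hd1 : d ≠ 1)
    (hsumd : (d : ℚ) * ∑ i, (k i : ℚ) * a i ^ 2 = ∑ i, (k i : ℚ)) : RatOdd G := by
  -- the sum over the neighbours of a representative
  have hsum : ∀ (a' : Fin n → ℚ) i, ∑ y, (if E (r i) y then a' (cls y) else 0) = ∑ j, (B i j : ℚ) * a' j := by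
    intro a' i
    rw [← Finset.sum_filter, ← Finset.sum_fiberwise_of_maps_to (t := Finset.univ) (g := cls)
      (fun _ _ => Finset.mem_univ _)]
    refine Finset.sum_congr rfl fun j _ => ?_
    rw [Finset.filter_filter]
    have h1 : ∀ y ∈ Finset.univ.filter (fun y => E (r i) y ∧ cls y = j), a' (cls y) = a' j := by
      intro y hy
      rw [(Finset.mem_filter.1 hy).2.2]
    rw [Finset.sum_congr rfl h1, Finset.sum_const, nsmul_eq_mul, hB]
  let V : Submodule ℚ (X → ℚ) :=
    { carrier := {φ | ∀ x, ∑ y, (if E x y then φ y else 0) = t * φ x}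
      add_mem' := by
        intro φ ψ h1 h2 x
        have h3 : ∀ y, (if E x y then (φ + ψ) y else 0) =
            (if E x y then φ y else 0) + if E x y then ψ y else 0 := by
          intro y
          by_cases h : E x y
          · rw [if_pos h, if_pos h, if_pos h, Pi.add_apply]
          · rw [if_neg h, if_neg h, if_neg h, add_zero]
        rw [Finset.sum_congr rfl fun y _ => h3 y, Finset.sum_add_distrib, h1 x, h2 x, Pi.add_apply]
        ring
      zero_mem' := by
        intro x
        simp
      smul_mem' := by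
        intro c φ h1 x
        have h3 : ∀ y, (if E x y then (c • φ) y else 0) = c * if E x y then φ y else 0 := by
          intro y
          by_cases h : E x y
          · rw [if_pos h, if_pos h, Pi.smul_apply, smul_eq_mul]
          · rw [if_neg h, if_neg h, mul_zero]
        rw [Finset.sum_congr rfl fun y _ => h3 y, ← Finset.mul_sum, h1 x, Pi.smul_apply, smul_eq_mul]
        ring }
  have hV : ∀ φ : X → ℚ, φ ∈ V ↔ ∀ x, ∑ y, (if E x y then φ y else 0) = t * φ x := fun _ => Iff.rfl
  have htrans : ∀ (g : G) (φ : X → ℚ) x, ∑ y, (if E x y then φ (g • y) else 0) =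
      ∑ y, (if E (g • x) y then φ y else 0) := by
    intro g φ x
    rw [← Equiv.sum_comp (MulAction.toPerm g) fun y => (if E (g • x) y then φ y else 0)]
    refine Finset.sum_congr rfl fun y _ => ?_
    rw [MulAction.toPerm_apply]
    by_cases h : E x y
    · rw [if_pos h, if_pos ((hE g x y).2 h)]
    · rw [if_neg h, if_neg fun h' => h ((hE g x y).1 h')]
  have hVG : ∀ (g : G) (φ : X → ℚ), φ ∈ V → (fun x => φ (g • x)) ∈ V := by
    intro g φ h1
    rw [hV] at h1 ⊢
    intro x
    rw [htrans, h1]
  have he : (fun x => a (cls x)) ∈ V := by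
    rw [hV]
    intro x
    obtain ⟨g, hg, hx⟩ := htr x
    have h1 := htrans g (fun y => a (cls y)) (r (cls x))
    rw [hx] at h1
    rw [← h1]
    have h2 : ∀ y, (if E (r (cls x)) y then a (cls (g • y)) else 0) =
        if E (r (cls x)) y then a (cls y) else 0 := by
      intro y
      rw [hcls g hg]
    rw [Finset.sum_congr rfl fun y _ => h2 y, hsum, hBa]
  have hcard : (Fintype.card X : ℚ) = ∑ i, (k i : ℚ) := by
    have h1 : Fintype.card X = ∑ i, k i := by
      rw [← Finset.card_univ, Finset.card_eq_sum_card_fiberwise (f := cls) (t := Finset.univ)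
        (fun _ _ => Finset.mem_univ _)]
      exact Finset.sum_congr rfl fun i _ => hk i
    rw [h1]
    push_cast
    rfl
  refine ratOdd_of_spherical hX V hVG L x₀ ?_ (fun x => a (cls x)) he ?_ ha ?_ d hd hd1 ?_
  · intro f hf q hq
    have h1 := (hV f).1 hf (q • x₀)
    have h2 := (hV f).1 hf x₀
    have h3 : ∑ y, (if E (q • x₀) y then f y else 0) = ∑ y, (if E x₀ y then f y else 0) := by
      refine Finset.sum_congr rfl fun y _ => ?_
      by_cases h : E x₀ y
      · rw [if_pos h, if_pos ((hL q hq y).2 h)]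
      · rw [if_neg h, if_neg fun h' => h ((hL q hq y).1 h')]
    rw [h3, h2] at h1
    exact (mul_left_cancel₀ ht h1).symm
  · intro q hq x
    show a (cls (q • x)) = a (cls x)
    rw [hcls q hq]
  · intro φ hφV hφ
    let a' : Fin n → ℚ := fun i => φ (r i)
    have haφ : ∀ x, φ x = a' (cls x) := by
      intro x
      obtain ⟨g, hg, hx⟩ := htr x
      show φ x = φ (r (cls x))
      rw [← hφ g hg (r (cls x)), hx]
    have h2 : ∀ i, ∑ j, (B i j : ℚ) * a' j = t * a' i := by
      intro i
      rw [← hsum a' i]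
      have h3 := (hV φ).1 hφV (r i)
      rw [Finset.sum_congr rfl fun y _ => by rw [haφ y]] at h3
      exact h3
    refine ⟨a' (cls x₀), funext fun x => ?_⟩
    show φ x = a' (cls x₀) * a (cls x)
    rw [haφ, huniq a' h2]
  · rw [hcard, ← hsumd]
    congr 1
    rw [← Finset.sum_fiberwise_of_maps_to (s := Finset.univ) (t := Finset.univ) (g := cls)
      (fun _ _ => Finset.mem_univ _)]
    refine Finset.sum_congr rfl fun i _ => ?_
    have h1 : ∀ y ∈ Finset.univ.filter (fun y => cls y = i), a (cls y) ^ 2 = a i ^ 2 := by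
      intro y hy
      rw [(Finset.mem_filter.1 hy).2]
    rw [Finset.sum_congr rfl h1, Finset.sum_const, nsmul_eq_mul, hk]

end Cfsg.Agent.H600.J3Odd
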