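import Cfsg.Agent.H600.J3Odd.Count
import Cfsg.Agent.H600.J3Odd.Graph

/-!
# `3·J₃` and `J₃` have a rational-valued irreducible character of degree 1615
-/

set_option autoImplicit false

namespace Cfsg.Agent.H600.J3Odd

open Cfsg Cfsg.Agent.H636.Gow
open Cfsg.Spor Cfsg.Agent.Lib.BitSet Cfsg.Agent.J3.Core Cfsg.Agent.J3.Orbits Cfsg.Agent.J3.Elts
open Cfsg.Agent.J3.Order Matrix

/-- the numbers of neighbours -/
def Bt (i j : Fin 22) : ℕ := (cd j).2.2.2.2.getD (cd i).1 0

def av (i : Fin 22) : ℤ := avec.getD i 0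

def Pm (k i : Fin 22) : ℤ := (pmat.getD k []).getD i 0

theorem eig : ∀ i : Fin 22, ∑ j, (Bt i j : ℤ) * av j = 9 * av i := by decide +kernel

theorem cert : ∀ k j : Fin 22, ∑ i, Pm k i * ((Bt i j : ℤ) - if i = j then 9 else 0) =
    D2 * ((if k = j then 102 else 0) - if j = 0 then av k else 0) := by decide +kernel

theorem norm_av : 1615 * ∑ i : Fin 22, ((cd i).2.2.1 : ℤ) * av i ^ 2 = 61560 * 102 ^ 2 := by decide +kernel

theorem sum_k : ∑ i : Fin 22, ((cd i).2.2.1 : ℤ) = 61560 := by decide +kernel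

theorem av_zero : av 0 = 102 := by decide

section
variable {F : Type} [Field F] {ω : F} [Fintype F] (hF : Fintype.card F = 4) (H : Good ω)

/-- the relation -/
def E (x y : X ω) : Prop := ∃ g : threeJ3 F ω, g • x0 = x ∧ (M 7).testBit (code hF H (g⁻¹ • y)) = true

theorem E_smul_x0 (g : threeJ3 F ω) (y : X ω) :
    E hF H (g • x0) y ↔ (M 7).testBit (code hF H (g⁻¹ • y)) = true := by
  constructor
  · rintro ⟨h, hh, h1⟩
    have h2 : h⁻¹ * g ∈ L hF H := by
      apply stab_le hF H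
      rw [MulAction.mem_stabilizer_iff, mul_smul, ← hh, inv_smul_smul]
    rw [← testBit_smul hF H (facts 7 (by norm_num)).1 h2, ← mul_smul, mul_assoc, mul_inv_cancel, mul_one]
    exact h1
  · intro h
    exact ⟨g, rfl, h⟩

theorem E_smul (g : threeJ3 F ω) (x y : X ω) : E hF H (g • x) (g • y) ↔ E hF H x y := by
  obtain ⟨h, rfl⟩ := exists_smul x
  rw [← mul_smul, E_smul_x0, E_smul_x0, _root_.mul_inv_rev, mul_smul, inv_smul_smul]

theorem E_L {q : threeJ3 F ω} (hq : q ∈ L hF H) (y : X ω) : E hF H (q • x0) y ↔ E hF H x0 y := by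
  have h1 := E_smul_x0 hF H 1 y
  rw [one_smul, inv_one, one_smul] at h1
  rw [h1, E_smul_x0, testBit_smul hF H (facts 7 (by norm_num)).1 (inv_mem hq)]

theorem E_rep (i : ℕ) (hi : i < 22) (y : X ω) :
    E hF H (rep hF H i) y ↔ (img 18 (wd (nodeW.getD (cd i).1 [])) (M 7)).testBit (code hF H y) = true := by
  unfold rep
  rw [E_smul_x0]
  have h1 := code_el hF H (nodeW_lt _ (node_lt i hi)) ((el hF H (nodeW.getD (cd i).1 []))⁻¹ • y)
  rw [smul_inv_smul] at h1
  rw [h1, img_testBit_act (wd_ok _) (code_lt' hF H _)]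

open Classical in
theorem card_E (i j : Fin 22) :
    (Finset.univ.filter fun y : X ω => E hF H (rep hF H i) y ∧ cls hF H y = j).card = Bt i j := by
  have h1 := (facts j j.2).2.2.2 (cd i).1 (node_lt i i.2)
  rw [← card_filter_code hF H] at h1
  · show _ = (cd j).2.2.2.2.getD (cd i).1 0
    rw [← h1]
    congr 1
    ext y
    rw [Finset.mem_filter, Finset.mem_filter, E_rep hF H i i.2, cls_eq_iff, Nat.testBit_and, Bool.and_eq_true]
  · intro n hn h
    rw [Nat.testBit_and, Bool.and_eq_true] at h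
    obtain ⟨g, -, h2⟩ := (testBit_M hF H j j.2 n hn).1 h.2
    exact ⟨_, h2⟩

include hF H in
theorem ratOdd_threeJ3 : RatOdd (threeJ3 F ω) := by
  classical
  have : Finite (threeJ3 F ω) := inferInstance
  refine ratOdd_of_graph (E hF H) (E_smul hF H) x0 (L hF H) (fun q hq y => E_L hF H hq y) (cls hF H)
    (fun j => rep hF H j) (fun g hg x => cls_smul hF H hg x) (exists_L hF H) Bt ?_
    (fun i => (av i : ℚ) / 102) 9 (by norm_num) ?_ ?_ ?_ trans_X (fun i => (cd i).2.2.1) ?_ 1615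
    (by decide) (by norm_num) ?_
  · intro i j
    convert card_E hF H i j
  · intro i
    have h1 : ((∑ j, (Bt i j : ℤ) * av j : ℤ) : ℚ) = ((9 * av i : ℤ) : ℚ) := by rw [eig]
    push_cast at h1
    rw [← mul_div_assoc, ← h1, Finset.sum_div]
    exact Finset.sum_congr rfl fun j _ => (mul_div_assoc _ _ _).symm
  · intro a' ha' k
    rw [cls_x0]
    have h1 : ∑ i, (Pm k i : ℚ) * ∑ j, ((Bt i j : ℚ) - if i = j then 9 else 0) * a' j = 0 := by
      refine Finset.sum_eq_zero fun i _ => ?_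
      have h2 : ∑ j, ((Bt i j : ℚ) - if i = j then 9 else 0) * a' j = 0 := by
        rw [Finset.sum_congr rfl fun j _ => sub_mul _ _ _, Finset.sum_sub_distrib, ha' i]
        simp
      rw [h2, mul_zero]
    rw [Finset.sum_congr rfl fun i _ => Finset.mul_sum _ _ _, Finset.sum_comm] at h1
    have h3 : ∀ j, ∑ i, (Pm k i : ℚ) * (((Bt i j : ℚ) - if i = j then 9 else 0) * a' j) =
        (D2 : ℚ) * ((if k = j then 102 else 0) - if j = 0 then (av k : ℚ) else 0) * a' j := by
      intro j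
      have h4 := congrArg (fun z : ℤ => (z : ℚ)) (cert k j)
      push_cast at h4
      rw [← h4, Finset.sum_mul]
      exact Finset.sum_congr rfl fun i _ => (mul_assoc _ _ _).symm
    rw [Finset.sum_congr rfl fun j _ => h3 j] at h1
    have h5 : ∑ j, (D2 : ℚ) * ((if k = j then 102 else 0) - if j = 0 then (av k : ℚ) else 0) * a' j =
        D2 * (102 * a' k - av k * a' 0) := by
      rw [Finset.sum_congr rfl fun j _ => mul_assoc _ _ _, ← Finset.mul_sum,
        Finset.sum_congr rfl fun j _ => sub_mul _ _ _, Finset.sum_sub_distrib]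
      simp
    rw [h5] at h1
    have h6 : (D2 : ℚ) ≠ 0 := by norm_num [D2]
    have h7 := (mul_eq_zero.1 h1).resolve_left h6
    show a' k = a' 0 * ((av k : ℚ) / 102)
    linarith
  · show ((av (cls hF H x0) : ℤ) : ℚ) / 102 = 1
    rw [cls_x0, av_zero]
    norm_num
  · intro i
    convert card_cls hF H i
  · have h1 := congrArg (fun z : ℤ => (z : ℚ)) norm_av
    have h2 := congrArg (fun z : ℤ => (z : ℚ)) sum_k
    push_cast at h1 h2
    rw [h2]
    rw [Finset.sum_congr rfl fun (i : Fin 22) _ => show (((cd i).2.2.1 : ℕ) : ℚ) * ((av i : ℚ) / 102) ^ 2 =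
      ((cd i).2.2.1 : ℚ) * (av i : ℚ) ^ 2 / 102 ^ 2 by ring, ← Finset.sum_div]
    push_cast
    linarith

end

end Cfsg.Agent.H600.J3Odd
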