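import Cfsg.Agent.H600.J3Odd.Main
import Cfsg.Agent.Blocks.Deflate

/-!
# `J₃` has a rational-valued irreducible character of degree 1615
-/

set_option autoImplicit false

namespace Cfsg.Agent.H600.J3Odd

open Cfsg Cfsg.Agent.H636.Gow Cfsg.Agent.Characters.Core Cfsg.Agent.J3.Core
open scoped ComplexConjugate

/-- A rational-valued irreducible character of odd degree is trivial on a normal subgroup of order 3. -/
theorem ratOdd_quotient {G : Type*} [Group G] [Finite G] (N : Subgroup G) [N.Normal] (hN : Nat.card N = 3)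
    (h : RatOdd G) : RatOdd (G ⧸ N) := by
  classical
  obtain ⟨χ, hχ, h1, ⟨d, hd, hd1⟩, hrat⟩ := h
  have : Fintype N := Fintype.ofFinite N
  have hcard : Fintype.card N = 3 := by rw [← Nat.card_eq_fintype_card, hN]
  obtain ⟨x, hx⟩ : ∃ x : N, x ≠ 1 := by
    have : Nontrivial N := Fintype.one_lt_card_iff_nontrivial.1 (by rw [hcard]; norm_num)
    exact exists_ne 1
  have hx3 : x ^ 3 = 1 := by rw [← hN, pow_card_eq_one']
  have hxx : x ≠ x⁻¹ := by
    intro h2
    apply hx
    have h3 : x * x = 1 := by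
      nth_rw 2 [h2]
      exact mul_inv_cancel x
    rw [pow_succ, pow_two, h3, one_mul] at hx3
    exact hx3
  have huniv : (Finset.univ : Finset N) = {1, x, x⁻¹} := by
    symm
    apply Finset.eq_univ_of_card
    rw [hcard, Finset.card_insert_of_notMem, Finset.card_pair hxx]
    rw [Finset.mem_insert, Finset.mem_singleton, not_or]
    exact ⟨Ne.symm hx, fun h2 => hx (inv_eq_one.1 h2.symm)⟩
  have hsum : ∑ n : N, χ n ≠ 0 := by
    rw [huniv, Finset.sum_insert, Finset.sum_pair hxx]
    · obtain ⟨m, hm⟩ := Cfsg.Agent.Characters.GaloisBasic.exists_int_of_rat (isIrr_isCharacter hχ) (x : G)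
        (hrat x)
      have h2 : χ ((x⁻¹ : N) : G) = m := by
        rw [Subgroup.coe_inv, isCharacter_apply_inv (isIrr_isCharacter hχ), hm, map_intCast]
      rw [h2, hm, Subgroup.coe_one, hd1]
      intro h3
      have h4 : (d : ℤ) + (m + m) = 0 := by exact_mod_cast h3
      obtain ⟨c, hc⟩ := hd
      omega
    · rw [Finset.mem_insert, Finset.mem_singleton, not_or]
      exact ⟨Ne.symm hx, fun h2 => hx (inv_eq_one.1 h2.symm)⟩
  obtain ⟨χ', hχ'⟩ := Cfsg.Agent.Blocks.Deflate.exists_deflation N χ hχ hsum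
  refine ⟨χ', χ'.2, ?_, ⟨d, hd, ?_⟩, ?_⟩
  · intro h2
    apply h1
    rw [hχ', h2]
    rfl
  · rw [← hd1, hχ']
    rfl
  · intro g
    obtain ⟨y, rfl⟩ := QuotientGroup.mk_surjective g
    obtain ⟨q, hq⟩ := hrat y
    refine ⟨q, ?_⟩
    rw [← hq, hχ']
    rfl

/-- `J₃` has a nontrivial rational-valued irreducible character of odd degree. -/
theorem j3 {K : Type*} [Group K] [Finite K] (h : Spor.IsoJ3 K) : RatOdd K := by
  obtain ⟨F, _, _, ω, hF, hω, ⟨e⟩⟩ := h
  have H := good_of_card hF hω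
  have h1 : RatOdd (Spor.threeJ3 F ω) := ratOdd_threeJ3 hF H
  have h2 : RatOdd (Spor.J3 F ω) := ratOdd_quotient _ (Cfsg.Agent.J3.Nineteen.card_center hF H) h1
  exact RatOdd.of_equiv e h2

end Cfsg.Agent.H600.J3Odd
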